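import Cfsg.Agent.H344.KwNum
import Cfsg.Agent.H344.KwPar
import Cfsg.Agent.H146.KW.Alt
import Cfsg.Agent.H999.RowPslC
import Cfsg.Agent.S0205
import Cfsg.Agent.S0249

/-!
# S4243, cross characteristic: the row PSL (helper344, task 3494)

`crossNo_psl` : `CrossNo r (PSL_n(F))`, `n ≥ 3`, `r` odd, by the parabolic principle: if `n` is not a power of 2, the Sylow
2-subgroups fix a subspace of dimension `n_2`; if `n = 2^b`, the Sylow `p`-subgroups, `p ≥ 5`, fix a subspace or are cyclic.
-/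

set_option autoImplicit false

namespace Cfsg.Agent.H344.Kw

open Module Cfsg.Agent.H146.KW Cfsg.Agent.H838.KW

variable {F : Type} [Field F] [Fintype F] {n : ℕ}

theorem not_dvd_card_center {r : ℕ} [hr : Fact r.Prime] [CharP F r] (hn : 1 ≤ n) :
    ¬ r ∣ Nat.card (Subgroup.center (Matrix.SpecialLinearGroup (Fin n) F)) := by
  obtain ⟨f, hf, hcard⟩ := FiniteField.card F r
  have h1 : ¬ r ∣ Fintype.card F - 1 := by
    intro hd
    rw [hcard] at hd
    have h2 : r ∣ r ^ (f : ℕ) := dvd_pow_self r f.pos.ne'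
    have h3 := (Nat.dvd_sub h2 hd)
    have h4 : 1 ≤ r ^ (f : ℕ) := Nat.one_le_pow _ _ hr.out.pos
    have h5 : r ^ (f : ℕ) - (r ^ (f : ℕ) - 1) = 1 := by omega
    rw [h5] at h3
    exact hr.out.one_lt.ne' (Nat.dvd_one.1 h3)
  have h2 := H999.RowPSL.not_dvd_center (F := F) (n := n) hn hr.out h1
  rwa [H999.RowPSL.ker_pr] at h2

/-- the order of `q` modulo `p` -/
theorem exists_order {p q : ℕ} [hp : Fact p.Prime] (hpq : ¬ p ∣ q) :
    ∃ e, 0 < e ∧ ∀ i, p ∣ q ^ i - 1 ↔ e ∣ i := by
  have hq0 : (q : ZMod p) ≠ 0 := by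
    rwa [Ne, ZMod.natCast_eq_zero_iff]
  have hq1 : 1 ≤ q := by
    rcases Nat.eq_zero_or_pos q with rfl | h
    · exact absurd (dvd_zero p) hpq
    · exact h
  refine ⟨orderOf (q : ZMod p), ?_, fun i => ?_⟩
  · rw [orderOf_pos_iff, isOfFinOrder_iff_pow_eq_one]
    exact ⟨p - 1, by have := hp.out.two_le; omega, ZMod.pow_card_sub_one_eq_one hq0⟩
  · have h1 : 1 ≤ q ^ i := Nat.one_le_pow _ _ hq1
    rw [orderOf_dvd_iff_pow_eq_one, ← ZMod.natCast_eq_zero_iff, Nat.cast_sub h1, Nat.cast_pow, Nat.cast_one,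
      sub_eq_zero]

/-- **The row PSL of the cross characteristic part of S4243.** -/
theorem crossNo_psl {r : ℕ} [hrf : Fact r.Prime] [CharP F r] (hr : r ≠ 2) (hn : 3 ≤ n) :
    CrossNo r (Matrix.ProjectiveSpecialLinearGroup (Fin n) F) := by
  intro H hs hna hne hall hrH
  have hsimple : IsSimpleGroup (Matrix.ProjectiveSpecialLinearGroup (Fin n) F) := Cfsg.Agent.S0249.result n hn
  obtain ⟨f, hf, hcard⟩ := FiniteField.card F r
  have hZ := not_dvd_card_center (F := F) (n := n) (r := r) (by omega)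
  have hV : finrank F (Fin n → F) = n := finrank_fin_fun F
  obtain ⟨v, k, hk, hnk⟩ := exists_two_part (i := n) (by omega)
  have h2v : 0 < 2 ^ v := pow_pos (by norm_num) v
  by_cases hk1 : k = 1
  · -- `n` a power of 2
    rw [hk1, mul_one] at hnk
    obtain ⟨p, hp, hp5, hpd⟩ := Alt.exists_prime_ge_five hs hna
    have hpf : Fact p.Prime := ⟨hp⟩
    have hpr : p ≠ r := by
      rintro rfl
      exact hrH hpd
    have hpq : ¬ p ∣ Fintype.card F := by
      rw [hcard]
      intro h
      exact hpr ((Nat.prime_dvd_prime_iff_eq hp hrf.out).1 (hp.dvd_of_dvd_pow h))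
    by_cases h : ∀ i, 0 < i → i < n → ¬ p ∣ Fintype.card F ^ i - 1
    · exact hne ((hall p).eq_top_of_isCyclic hpd (H999.RowPSL.cyclic_sylow (by omega) hpq h))
    · push Not at h
      obtain ⟨i, hi0, hin, hi⟩ := h
      obtain ⟨e, he0, he⟩ := exists_order (p := p) hpq
      have hei : e ≤ i := Nat.le_of_dvd hi0 ((he i).1 hi)
      by_cases hen : e ∣ n
      · obtain ⟨c, hc⟩ := hen
        have hc0 : 0 < c := by
          rcases Nat.eq_zero_or_pos c with rfl | h
          · omega
          · exact h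
        refine noP_psl (F := F) hpr he0 (by omega) (not_dvd_of_dvd hp he he0 (by rw [hV, hc]) hc0 ?_) hZ H (hall p) hrH hpd
        intro hpc
        have h1 : p ∣ 2 ^ v := by
          rw [← hnk, hc]
          exact Dvd.dvd.mul_left hpc e
        have h2 := (Nat.prime_dvd_prime_iff_eq hp Nat.prime_two).1 (hp.dvd_of_dvd_pow h1)
        omega
      · refine noP_psl (F := F) hpr (m := n % e) (Nat.pos_of_ne_zero fun h0 => hen (Nat.dvd_of_mod_eq_zero h0)) ?_
          (not_dvd_of_mod hp he he0 hV) hZ H (hall p) hrH hpd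
        have := Nat.mod_lt n he0
        omega
  · -- `n` not a power of 2
    have h2d : 2 ∣ Nat.card H := by
      by_contra h2
      have h3 : Odd (Nat.card H) := by
        rw [Nat.odd_iff]
        omega
      have h4 := Cfsg.Agent.S0205.result h3
      exact hna ⟨⟨IsSimpleGroup.comm_iff_isSolvable.mpr h4⟩⟩
    have hk3 : 3 ≤ k := by
      rcases hk with ⟨c, rfl⟩
      omega
    have hodd : Odd (Fintype.card F) := by
      rw [hcard]
      exact (hrf.out.odd_of_ne_two hr).pow
    refine noP_psl (F := F) (p := 2) (r := r) (Ne.symm hr) h2v ?_ (not_two_dvd hodd hk (by rw [hV, hnk])) hZ H (hall 2) hrH h2d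
    rw [hnk]
    nlinarith

end Cfsg.Agent.H344.Kw
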